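/-
The words of the presentation of the central extension of `PSL₃(4)` by the four-group.
-/
import Mathlib

set_option autoImplicit false

namespace Cfsg.Agent.Lib.Fischer.L34.Words

/-- The letter `a`, of order three. -/
abbrev aF : FreeGroup (Fin 2) := FreeGroup.of 0

/-- The letter `b`, of order seven. -/
abbrev bF : FreeGroup (Fin 2) := FreeGroup.of 1

/-- The relators of `PSL₃(4)` other than the powers of the letters. -/
def WL : List (List (Fin 2 × Bool)) :=
  [[(0,true),(1,true),(0,false),(1,false),(1,false),(1,false),(0,false),(1,false),(0,true),(1,false),(1,false),(0,false),(1,false),(1,false),(1,false),(0,true),(1,false),(1,false)],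
    [(0,true),(1,true),(1,true),(0,true),(1,false),(1,false),(1,false),(1,false),(1,false),(0,true),(1,true),(1,true),(0,true),(1,false),(1,false),(1,false),(1,false),(1,false)],
    [(0,true),(1,true),(1,true),(0,false),(1,true),(0,false),(1,false),(1,false),(0,true),(1,true),(1,true),(1,true),(0,false),(1,true),(0,true),(1,true),(1,true),(1,true)],
    [(0,true),(1,true),(1,true),(1,true),(0,true),(1,false),(0,true),(1,false),(1,false),(0,true),(1,true),(1,true),(1,true),(0,true),(1,false),(0,true),(1,false),(1,false)]]

/-- A word as an element of the free group. -/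
def wF (l : List (Fin 2 × Bool)) : FreeGroup (Fin 2) := FreeGroup.mk l

/-- The relators saying that a word is a central involution. -/
def relsOf (w : FreeGroup (Fin 2)) : List (FreeGroup (Fin 2)) :=
  [w * w, w * aF * w⁻¹ * aF⁻¹, w * bF * w⁻¹ * bF⁻¹]

/-- All relators. -/
def rsAll : List (FreeGroup (Fin 2)) :=
  (aF ^ 3) :: (bF ^ 7) :: WL.flatMap (fun l => relsOf (wF l))

/-- The generators of the subgroup of the coset table. -/
def HsAll : List (FreeGroup (Fin 2)) := [bF, wF (WL.getD 0 []), wF (WL.getD 2 [])]

end Cfsg.Agent.Lib.Fischer.L34.Words
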